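import Mathlib
import Cfsg.Prelude.Def_Sporadic_a
import Cfsg.Agent.Lib.Steiner.Basic

/-! A strongly regular graph with parameters (100, 22, 0, 6) is the point-block graph of an S(3, 6, 22). -/

set_option autoImplicit false
set_option linter.style.haveILetI false

namespace Cfsg.Lib.HSGraph

open Finset Cfsg

variable {V : Type*} [Fintype V] [DecidableEq V] (G : SimpleGraph V) [DecidableRel G.Adj]

/-- The points seen from a vertex. -/
abbrev Pts (v : V) : Type _ := {n : V // G.Adj v n}

/-- The other vertices seen from a vertex. -/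
abbrev Others (v : V) : Type _ := {w : V // ¬G.Adj v w ∧ w ≠ v}

/-- The block of a vertex. -/
def blk (v : V) (w : Others G v) : Finset (Pts G v) := univ.filter fun n => G.Adj w.1 n.1

/-- The system seen from a vertex. -/
def sys (v : V) : Set (Finset (Pts G v)) := Set.range (blk G v)

variable {G} (hG : G.IsSRGWith 100 22 0 6)

include hG in
theorem no_triangle {a b c : V} (h : G.Adj a b) (h' : G.Adj a c) : ¬G.Adj b c := fun h'' => by
  have h0 := hG.of_adj a b h
  rw [Fintype.card_eq_zero_iff] at h0
  exact h0.false ⟨c, SimpleGraph.mem_commonNeighbors _ |>.2 ⟨h', h''⟩⟩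

include hG in
theorem card_common {a b : V} (hne : a ≠ b) (h : ¬G.Adj a b) :
    (univ.filter fun w => G.Adj a w ∧ G.Adj b w).card = 6 := by
  rw [← hG.of_not_adj hne h, ← Fintype.card_subtype]
  exact Fintype.card_congr (Equiv.subtypeEquivRight fun w => (SimpleGraph.mem_commonNeighbors _).symm)

include hG in
theorem card_nbr (a : V) : (univ.filter fun w => G.Adj a w).card = 22 := by
  rw [← hG.regular a, ← G.card_neighborFinset_eq_degree]
  congr 1; ext w; simp

include hG in
theorem card_pts (v : V) : Fintype.card (Pts G v) = 22 := by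
  rw [Fintype.card_subtype]; exact card_nbr hG v

include hG in
theorem card_others (v : V) : Fintype.card (Others G v) = 77 := by
  rw [Fintype.card_subtype]
  have h : (univ.filter fun w => ¬G.Adj v w ∧ w ≠ v) = (univ \ (univ.filter fun w => G.Adj v w)).erase v := by
    ext w; simp [and_comm]
  rw [h, card_erase_of_mem (by simp), card_sdiff_of_subset (subset_univ _), card_nbr hG, card_univ, hG.card]

theorem card_subtype_filter {α : Type*} [Fintype α] (p q : α → Prop) [DecidablePred p] [DecidablePred q] :
    (univ.filter fun x : {a : α // p a} => q x.1).card = (univ.filter fun a => p a ∧ q a).card := by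
  rw [← card_map (Function.Embedding.subtype _)]
  congr 1
  ext a
  simp only [mem_map, mem_filter, mem_univ, true_and, Function.Embedding.coe_subtype]
  exact ⟨fun ⟨x, hx, e⟩ => e ▸ ⟨x.2, hx⟩, fun ⟨h, h'⟩ => ⟨⟨a, h⟩, h', rfl⟩⟩

include hG in
theorem card_blk (v : V) (w : Others G v) : (blk G v w).card = 6 := by
  rw [blk, card_subtype_filter (fun n => G.Adj v n) (fun n => G.Adj w.1 n)]
  exact card_common hG w.2.2.symm w.2.1

include hG in
theorem through_two (v : V) (x y : Pts G v) :
    (univ.filter fun c : Others G v => x ∈ blk G v c ∧ y ∈ blk G v c).card = if x = y then 21 else 5 := by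
  have h : (univ.filter fun c : Others G v => x ∈ blk G v c ∧ y ∈ blk G v c).card =
      ((univ.filter fun w => G.Adj x.1 w ∧ G.Adj y.1 w).erase v).card := by
    have h1 : (univ.filter fun c : Others G v => x ∈ blk G v c ∧ y ∈ blk G v c) =
        univ.filter fun c : Others G v => G.Adj x.1 c.1 ∧ G.Adj y.1 c.1 := by
      ext c; simp [blk, G.adj_comm]
    rw [h1, card_subtype_filter (fun w => ¬G.Adj v w ∧ w ≠ v) (fun w => G.Adj x.1 w ∧ G.Adj y.1 w)]
    congr 1
    ext w
    simp only [mem_filter, mem_univ, true_and, mem_erase]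
    exact ⟨fun h => ⟨h.1.2, h.2⟩, fun h => ⟨⟨fun h' => no_triangle hG x.2 h' h.2.1, h.1⟩, h.2⟩⟩
  rw [h, card_erase_of_mem (by simp [G.adj_comm _ v, x.2, y.2])]
  split_ifs with e
  · subst e; simp only [and_self]; rw [card_nbr hG]
  · rw [card_common hG (fun e' => e (Subtype.ext e')) (no_triangle hG x.2 y.2)]

include hG in
theorem sums (v : V) (w : Others G v) :
    ∑ c : Others G v, (blk G v w ∩ blk G v c).card = 126 ∧
    ∑ c : Others G v, (blk G v w ∩ blk G v c).card * (blk G v w ∩ blk G v c).card = 276 := by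
  have hb := card_blk hG v w
  constructor
  · have : ∀ c, (blk G v w ∩ blk G v c).card = ∑ x ∈ blk G v w, if x ∈ blk G v c then 1 else 0 := fun c => by
      rw [← card_filter, Finset.filter_mem_eq_inter]
    rw [Finset.sum_congr rfl fun c _ => this c, Finset.sum_comm,
      Finset.sum_const_nat (m := 21) fun x _ => ?_, hb]
    rw [← card_filter]
    have := through_two hG v x x
    simpa using this
  · have : ∀ c, (blk G v w ∩ blk G v c).card * (blk G v w ∩ blk G v c).card =
        ∑ x ∈ blk G v w, ∑ y ∈ blk G v w, if x ∈ blk G v c ∧ y ∈ blk G v c then 1 else 0 := fun c => by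
      rw [← Finset.filter_mem_eq_inter, card_filter, Finset.sum_mul_sum]
      exact sum_congr rfl fun x _ => sum_congr rfl fun y _ => by
        by_cases hx : x ∈ blk G v c <;> by_cases hy : y ∈ blk G v c <;> simp [hx, hy]
    rw [Finset.sum_congr rfl fun c _ => this c, Finset.sum_comm,
      Finset.sum_const_nat (m := 46) fun x hx => ?_, hb]
    rw [Finset.sum_comm]
    simp only [← card_filter, through_two hG v x]
    rw [Finset.sum_ite, Finset.sum_const, Finset.sum_const, Finset.filter_eq, if_pos hx]
    have : ((blk G v w).filter fun y => ¬x = y).card = 5 := by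
      rw [show ((blk G v w).filter fun y => ¬x = y) = (blk G v w).erase x by ext y; simp [and_comm, eq_comm],
        card_erase_of_mem hx, hb]
    rw [this]; simp

include hG in
theorem meet (v : V) (w c : Others G v) (hne : w ≠ c) :
    (G.Adj w.1 c.1 → (blk G v w ∩ blk G v c).card = 0) ∧ (¬G.Adj w.1 c.1 → (blk G v w ∩ blk G v c).card = 2) := by
  classical
  have h0 : ∀ c : Others G v, G.Adj w.1 c.1 → (blk G v w ∩ blk G v c).card = 0 := fun c h => by
    rw [card_eq_zero, ← disjoint_iff_inter_eq_empty, disjoint_left]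
    intro n hn hn'
    simp only [blk, mem_filter, mem_univ, true_and] at hn hn'
    exact no_triangle hG h hn hn'
  refine ⟨h0 c, fun hc => ?_⟩
  set A := univ.filter fun c : Others G v => c ≠ w ∧ ¬G.Adj w.1 c.1 with hA
  have hcardA : A.card = 60 := by
    have hadj : (univ.filter fun c : Others G v => G.Adj w.1 c.1).card = 16 := by
      rw [card_subtype_filter (fun u => ¬G.Adj v u ∧ u ≠ v) (fun u => G.Adj w.1 u)]
      have h : (univ.filter fun u => (¬G.Adj v u ∧ u ≠ v) ∧ G.Adj w.1 u) =
          (univ.filter fun u => G.Adj w.1 u) \ (univ.filter fun u => G.Adj v u ∧ G.Adj w.1 u) := by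
        ext u
        simp only [mem_filter, mem_univ, true_and, mem_sdiff]
        exact ⟨fun h => ⟨h.2, fun h' => h.1.1 h'.1⟩,
          fun h => ⟨⟨fun h' => h.2 ⟨h', h.1⟩, fun e => w.2.1 (e ▸ h.1).symm⟩, h.1⟩⟩
      rw [h, card_sdiff_of_subset (fun u => by simp), card_nbr hG, card_common hG w.2.2.symm w.2.1]
    have h : A = (univ \ univ.filter fun c : Others G v => G.Adj w.1 c.1).erase w := by
      ext u; simp [hA, and_comm]
    rw [h, card_erase_of_mem (by simp), card_sdiff_of_subset (subset_univ _), hadj, card_univ, card_others hG]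
  obtain ⟨s1, s2⟩ := sums hG v w
  have hb := card_blk hG v w
  have split : ∀ f : ℕ → ℕ, f 0 = 0 → ∑ c : Others G v, f (blk G v w ∩ blk G v c).card =
      f 6 + ∑ c ∈ A, f (blk G v w ∩ blk G v c).card := by
    intro f hf
    rw [← Finset.add_sum_erase _ _ (mem_univ w), inter_self, hb]
    congr 1
    refine (Finset.sum_subset (fun u hu => ?_) fun u hu hu' => ?_).symm
    · simp only [hA, mem_filter] at hu; simp [hu.2.1]
    · simp only [mem_erase, mem_univ, and_true] at hu
      simp only [hA, mem_filter, mem_univ, true_and, not_and, not_not] at hu'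
      rw [h0 u (hu' hu), hf]
  rw [split (fun m => m) rfl] at s1
  rw [split (fun m => m * m) rfl] at s2
  have hz : ∑ c ∈ A, (((blk G v w ∩ blk G v c).card : ℤ) - 2) ^ 2 = 0 := by
    have e : ∀ m : ℤ, (m - 2) ^ 2 = m * m - 4 * m + 4 := fun m => by ring
    simp only [e, Finset.sum_add_distrib, Finset.sum_sub_distrib, ← Finset.mul_sum, Finset.sum_const, hcardA]
    have t1 : ∑ c ∈ A, ((blk G v w ∩ blk G v c).card : ℤ) = 120 := by
      exact_mod_cast (show ∑ c ∈ A, (blk G v w ∩ blk G v c).card = 120 by omega)
    have t2 : ∑ c ∈ A, ((blk G v w ∩ blk G v c).card : ℤ) * (blk G v w ∩ blk G v c).card = 240 := by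
      exact_mod_cast (show ∑ c ∈ A, (blk G v w ∩ blk G v c).card * (blk G v w ∩ blk G v c).card = 240 by omega)
    rw [t1, t2]; norm_num
  have := (Finset.sum_eq_zero_iff_of_nonneg fun c _ => sq_nonneg _).1 hz c (by simp [hA, Ne.symm hne, hc])
  have h2 := eq_zero_of_pow_eq_zero this
  omega

include hG in
theorem blk_injective (v : V) : Function.Injective (blk G v) := fun w c h => by
  by_contra hne
  have hb := card_blk hG v c
  obtain ⟨m1, m2⟩ := meet hG v w c hne
  rw [h, inter_self] at m1 m2
  by_cases hadj : G.Adj w.1 c.1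
  · have := m1 hadj; omega
  · have := m2 hadj; omega

include hG in
theorem adj_iff (v : V) (w c : Others G v) : G.Adj w.1 c.1 ↔ Disjoint (blk G v w) (blk G v c) := by
  rw [disjoint_iff_inter_eq_empty, ← card_eq_zero]
  by_cases hne : w = c
  · subst hne
    simp [card_blk hG v w]
  · obtain ⟨m1, m2⟩ := meet hG v w c hne
    exact ⟨m1, fun h => by_contra fun h' => by have := m2 h'; omega⟩

include hG in
theorem isSteiner (v : V) : IsSteinerSystem 3 6 (sys G v) := by
  classical
  refine ⟨?_, fun s hs => ?_⟩
  · rintro _ ⟨w, rfl⟩; exact card_blk hG v w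
  obtain ⟨x, y, z, hxy, hxz, hyz, rfl⟩ := card_eq_three.1 hs
  set P := univ.filter fun c : Others G v => x ∈ blk G v c ∧ y ∈ blk G v c with hP
  have hP5 : P.card = 5 := by
    have := through_two hG v x y
    rwa [if_neg hxy] at this
  have hpair : ∀ c ∈ P, ({x, y} : Finset (Pts G v)) ⊆ blk G v c := fun c hc => by
    simp only [hP, mem_filter] at hc
    simp [insert_subset_iff, hc.2.1, hc.2.2]
  have hinter : ∀ c ∈ P, ∀ d ∈ P, c ≠ d → blk G v c ∩ blk G v d = {x, y} := fun c hc d hd hne => by
    obtain ⟨m1, m2⟩ := meet hG v c d hne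
    have hsub : ({x, y} : Finset (Pts G v)) ⊆ blk G v c ∩ blk G v d := subset_inter (hpair c hc) (hpair d hd)
    refine (eq_of_subset_of_card_le hsub ?_).symm
    rw [card_pair hxy]
    by_cases hadj : G.Adj c.1 d.1
    · rw [m1 hadj]; norm_num
    · rw [m2 hadj]
  have hdisj : (P : Set (Others G v)).PairwiseDisjoint fun c => blk G v c \ {x, y} := by
    intro c hc d hd hne
    rw [Function.onFun, disjoint_left]
    intro u hu hu'
    have : u ∈ blk G v c ∩ blk G v d := mem_inter.2 ⟨(mem_sdiff.1 hu).1, (mem_sdiff.1 hu').1⟩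
    rw [hinter c hc d hd hne] at this
    exact (mem_sdiff.1 hu).2 this
  have hcover : P.biUnion (fun c => blk G v c \ {x, y}) = univ \ {x, y} := by
    refine eq_of_subset_of_card_le (fun u hu => ?_) ?_
    · obtain ⟨c, -, hu⟩ := mem_biUnion.1 hu
      exact mem_sdiff.2 ⟨mem_univ u, (mem_sdiff.1 hu).2⟩
    · rw [card_biUnion hdisj, Finset.sum_const_nat (m := 4) fun c hc => by
        rw [card_sdiff_of_subset (hpair c hc), card_blk hG, card_pair hxy], hP5,
        card_sdiff_of_subset (subset_univ _), card_pair hxy, card_univ, card_pts hG]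
  have hz : z ∈ P.biUnion fun c => blk G v c \ {x, y} := by
    rw [hcover]; simp [Ne.symm hxz, Ne.symm hyz]
  obtain ⟨c, hc, hzc⟩ := mem_biUnion.1 hz
  refine ⟨blk G v c, ⟨⟨c, rfl⟩, ?_⟩, ?_⟩
  · intro u hu
    simp only [mem_insert, mem_singleton] at hu
    rcases hu with rfl | rfl | rfl
    · exact hpair c hc (by simp)
    · exact hpair c hc (by simp)
    · exact (mem_sdiff.1 hzc).1
  · rintro _ ⟨⟨d, rfl⟩, hsd⟩
    congr 1
    by_contra hne
    have hd : d ∈ P := by simp [hP, hsd (by simp : x ∈ _), hsd (by simp : y ∈ _)]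
    have : z ∈ blk G v d ∩ blk G v c := mem_inter.2 ⟨hsd (by simp), (mem_sdiff.1 hzc).1⟩
    rw [hinter d hd c hc hne] at this
    simp [Ne.symm hxz, Ne.symm hyz] at this

/-- Where a vertex lands in the point-block graph. -/
noncomputable def coord (v : V) (u : V) : Option (Pts G v ⊕ sys G v) :=
  if h : u = v then none else if h' : G.Adj v u then some (Sum.inl ⟨u, h'⟩) else
    some (Sum.inr ⟨blk G v ⟨u, h', h⟩, ⟨_, rfl⟩⟩)

include hG in
theorem coord_bijective (v : V) : Function.Bijective (coord (G := G) v) := by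
  constructor
  · intro a b h
    unfold coord at h
    split_ifs at h with h1 h2 h3 h4 h5 h6
    all_goals first
      | (subst h1; subst h2; rfl)
      | (simpa using h)
      | (injection h with h; injection h with h; exact congrArg Subtype.val h)
      | (injection h with h; injection h with h
         exact congrArg Subtype.val (blk_injective hG v (congrArg Subtype.val h)))
  · rintro (_ | ⟨n, hn⟩ | ⟨_, w, rfl⟩)
    · exact ⟨v, dif_pos rfl⟩
    · refine ⟨n, ?_⟩
      unfold coord
      rw [dif_neg hn.ne', dif_pos hn]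
    · refine ⟨w.1, ?_⟩
      unfold coord
      rw [dif_neg w.2.2, dif_neg w.2.1]

include hG in
theorem coord_adj (v a b : V) : (pointBlockGraph (sys G v)).Adj (coord v a) (coord v b) ↔ G.Adj a b := by
  have hadj : ∀ x y, (pointBlockGraph (sys G v)).Adj x y ↔
      x ≠ y ∧ (pointBlockRel (sys G v) x y ∨ pointBlockRel (sys G v) y x) := fun x y => Iff.rfl
  rw [hadj, Ne, (coord_bijective hG v).1.eq_iff]
  by_cases hab : a = b
  · subst hab; simp
  simp only [hab, not_false_eq_true, true_and]
  unfold coord
  by_cases ha : a = v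
  · subst ha
    have hb : b ≠ a := Ne.symm hab
    by_cases hb' : G.Adj a b
    · simp [hb, hb', pointBlockRel]
    · simp [hb, hb', pointBlockRel]
  by_cases hb : b = v
  · subst hb
    by_cases ha' : G.Adj b a
    · simp [ha, ha', pointBlockRel, ha'.symm]
    · have : ¬G.Adj a b := fun h => ha' h.symm
      simp [ha, ha', pointBlockRel, this]
  rw [dif_neg ha, dif_neg hb]
  by_cases ha' : G.Adj v a <;> by_cases hb' : G.Adj v b
  · rw [dif_pos ha', dif_pos hb']
    simp [pointBlockRel, no_triangle hG ha' hb']
  · rw [dif_pos ha', dif_neg hb']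
    simp [pointBlockRel, blk, G.adj_comm]
  · rw [dif_neg ha', dif_pos hb']
    simp [pointBlockRel, blk, G.adj_comm]
  · rw [dif_neg ha', dif_neg hb']
    simp only [pointBlockRel]
    rw [← adj_iff hG, ← adj_iff hG, G.adj_comm b, or_self]

include hG in
/-- The graph is the point-block graph of the system seen from any vertex. -/
theorem exists_iso (v : V) : ∃ φ : G ≃g pointBlockGraph (sys G v), φ v = none :=
  ⟨⟨Equiv.ofBijective _ (coord_bijective hG v), fun {a b} => coord_adj hG v a b⟩, dif_pos rfl⟩

end Cfsg.Lib.HSGraph
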