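import Mathlib
import Cfsg.Agent.Lib.HSGraph.Unique
import Cfsg.Agent.S0410

/-! Uniqueness and automorphisms of the Higman–Sims graph. -/

set_option autoImplicit false
set_option linter.style.haveILetI false

namespace Cfsg.Lib.HSGraph

open Finset Cfsg
open scoped Pointwise

variable {α β : Type*} [DecidableEq α] [DecidableEq β] {B : Set (Finset α)} {B' : Set (Finset β)}

theorem adj_pb (B : Set (Finset α)) (x y : Option (α ⊕ B)) : (pointBlockGraph B).Adj x y ↔
    x ≠ y ∧ (pointBlockRel B x y ∨ pointBlockRel B y x) := Iff.rfl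

/-- A bijection of points carrying the blocks acts on the point-block graph. -/
noncomputable def mapGraph (e : α ≃ β) (h : (fun b : Finset α => b.image e) '' B = B') :
    pointBlockGraph B ≃g pointBlockGraph B' := by
  let f : B ≃ B' := Equiv.ofBijective (fun b => ⟨b.1.image e, h ▸ ⟨b.1, b.2, rfl⟩⟩)
    ⟨fun b c hbc => Subtype.ext (Finset.image_injective e.injective (congrArg Subtype.val hbc)), fun ⟨c, hc⟩ => by
      rw [← h] at hc
      obtain ⟨b, hb, rfl⟩ := hc
      exact ⟨⟨b, hb⟩, rfl⟩⟩
  refine ⟨Equiv.optionCongr (Equiv.sumCongr e f), ?_⟩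
  intro x y
  rw [adj_pb, adj_pb, (Equiv.optionCongr (Equiv.sumCongr e f)).injective.ne_iff]
  refine and_congr_right fun _ => ?_
  rcases x with _ | a | b <;> rcases y with _ | a' | b' <;>
    simp [pointBlockRel, f, Equiv.ofBijective, Finset.disjoint_image e.injective, e.injective.eq_iff]

theorem mapGraph_none (e : α ≃ β) (h : (fun b : Finset α => b.image e) '' B = B') :
    mapGraph e h none = none := rfl

theorem mapGraph_inl (e : α ≃ β) (h : (fun b : Finset α => b.image e) '' B = B') (a : α) :
    mapGraph e h (some (Sum.inl a)) = some (Sum.inl (e a)) := rfl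

theorem exists_iso_none {V : Type*} [Fintype V] [DecidableEq V] {G : SimpleGraph V} [DecidableRel G.Adj]
    (hG : G.IsSRGWith 100 22 0 6) {α : Type*} [Fintype α] [DecidableEq α] (hα : Fintype.card α = 22)
    {B : Set (Finset α)} (hB : IsSteinerSystem 3 6 B) (v : V) : ∃ φ : G ≃g pointBlockGraph B, φ v = none := by
  obtain ⟨φ, hφ⟩ := exists_iso hG v
  obtain ⟨e, he⟩ := Cfsg.Agent.S0410.result (card_pts hG v) hα (isSteiner hG v) hB
  exact ⟨φ.trans (mapGraph e he), by show mapGraph e he (φ v) = none; rw [hφ]; rfl⟩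

theorem fix_none_aut {α : Type*} [Fintype α] [DecidableEq α] {B : Set (Finset α)} (hB : IsSteinerSystem 3 6 B)
    (φ : pointBlockGraph B ≃g pointBlockGraph B) (h : φ none = none) :
    ∃ π : Equiv.Perm α, π ∈ setSystemAut B ∧ (∀ a, φ (some (Sum.inl a)) = some (Sum.inl (π a))) ∧
      ∀ b : B, ∃ c : B, φ (some (Sum.inr b)) = some (Sum.inr c) ∧ c.1 = b.1.image π := by
  classical
  have hp : ∀ a, ∃ a', φ (some (Sum.inl a)) = some (Sum.inl a') := by
    intro a
    have hadj : (pointBlockGraph B).Adj none (φ (some (Sum.inl a))) := by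
      have := φ.map_rel_iff.2 (show (pointBlockGraph B).Adj none (some (Sum.inl a)) by simp [adj_pb, pointBlockRel])
      rwa [h] at this
    rcases hq : φ (some (Sum.inl a)) with _ | a' | c
    · rw [hq] at hadj; exact absurd hadj (SimpleGraph.irrefl _)
    · exact ⟨a', rfl⟩
    · rw [hq] at hadj; simp [adj_pb, pointBlockRel] at hadj
  choose f hf using hp
  have hfi : Function.Injective f := fun a b e => by
    have := φ.injective ((hf a).trans ((congrArg (fun z => some (Sum.inl z)) e).trans (hf b).symm))
    exact Sum.inl.inj (Option.some.inj this)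
  let π : Equiv.Perm α := Equiv.ofBijective f ⟨hfi, Finite.surjective_of_injective hfi⟩
  have hblk : ∀ b : B, ∃ c : B, φ (some (Sum.inr b)) = some (Sum.inr c) ∧ c.1 = b.1.image π := by
    intro b
    rcases hq : φ (some (Sum.inr b)) with _ | a' | c
    · exact absurd (φ.injective (hq.trans h.symm)) (by simp)
    · obtain ⟨a, rfl⟩ := π.surjective a'
      exact absurd (φ.injective (hq.trans (hf a).symm)) (by simp)
    · refine ⟨c, rfl, Finset.ext fun a' => ?_⟩
      obtain ⟨a, rfl⟩ := π.surjective a'
      have hm := φ.map_rel_iff (a := some (Sum.inl a)) (b := some (Sum.inr b))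
      rw [hq, hf a] at hm
      simp [adj_pb, pointBlockRel] at hm
      rw [Finset.mem_image]
      exact ⟨fun hc => ⟨a, hm.1 hc, rfl⟩, fun ⟨x, hx, e⟩ => hm.2 (π.injective e ▸ hx)⟩
  refine ⟨π, ?_, hf, hblk⟩
  rw [MulAction.mem_stabilizer_set' (Set.toFinite _)]
  intro b hb
  obtain ⟨c, -, hc⟩ := hblk ⟨b, hb⟩
  rw [Finset.smul_finset_def]
  convert c.2 using 1
  rw [hc]
  rfl

theorem mapGraph_blk {α : Type*} [DecidableEq α] {B : Set (Finset α)} (e : α ≃ α)
    (h : (fun b : Finset α => b.image e) '' B = B) (b : B) :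
    ∃ c : B, mapGraph e h (some (Sum.inr b)) = some (Sum.inr c) ∧ c.1 = b.1.image e := ⟨_, rfl, rfl⟩

theorem card_aut {α : Type*} [Fintype α] [DecidableEq α] (hα : Fintype.card α = 22) {B : Set (Finset α)}
    (hB : IsSteinerSystem 3 6 B) [Fintype B] [DecidableRel (pointBlockGraph B).Adj]
    (hG : (pointBlockGraph B).IsSRGWith 100 22 0 6) :
    Nat.card (pointBlockGraph B ≃g pointBlockGraph B) = 100 * Nat.card (setSystemAut B) := by
  classical
  choose T hT using fun w : Option (α ⊕ B) => exists_iso_none hG hα hB w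
  have himg : ∀ π : setSystemAut B, (fun b : Finset α => b.image (π : Equiv.Perm α)) '' B = B := fun π =>
    π.2
  let F : Option (α ⊕ B) × setSystemAut B → (pointBlockGraph B ≃g pointBlockGraph B) := fun p =>
    (mapGraph (p.2 : Equiv.Perm α) (himg p.2)).trans (T p.1).symm
  have hF : Function.Bijective F := by
    constructor
    · rintro ⟨w, π⟩ ⟨w', π'⟩ e
      have hev : ∀ x, (T w).symm (mapGraph (π : Equiv.Perm α) (himg π) x) =
          (T w').symm (mapGraph (π' : Equiv.Perm α) (himg π') x) := fun x => DFunLike.congr_fun e x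
      have hw : w = w' := by
        have h0 := hev none
        rw [mapGraph_none, mapGraph_none] at h0
        have h1 : (T w).symm none = w := by rw [← hT w]; exact (T w).symm_apply_apply w
        have h2 : (T w').symm none = w' := by rw [← hT w']; exact (T w').symm_apply_apply w'
        rwa [h1, h2] at h0
      subst hw
      refine Prod.ext rfl (Subtype.ext (Equiv.ext fun a => ?_))
      have := (T w).symm.injective (hev (some (Sum.inl a)))
      rw [mapGraph_inl, mapGraph_inl] at this
      exact Sum.inl.inj (Option.some.inj this)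
    · intro ψ
      set w := ψ none with hw
      obtain ⟨π, hπ, h1, h2⟩ := fix_none_aut hB (ψ.trans (T w)) (by show T w (ψ none) = none; exact hT w)
      refine ⟨(w, ⟨π, hπ⟩), ?_⟩
      refine DFunLike.ext _ _ fun x => ?_
      show (T w).symm (mapGraph π (himg ⟨π, hπ⟩) x) = ψ x
      have hkey : mapGraph π (himg ⟨π, hπ⟩) x = T w (ψ x) := by
        rcases x with _ | a | b
        · exact (hT w).symm
        · exact (h1 a).symm
        · obtain ⟨c, hc, hc'⟩ := h2 b
          obtain ⟨d, hd, hd'⟩ := mapGraph_blk π (himg ⟨π, hπ⟩) b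
          rw [hd]
          refine Eq.trans ?_ hc.symm
          rw [show d = c from Subtype.ext (hd'.trans hc'.symm)]
      rw [hkey, RelIso.symm_apply_apply]
  rw [← Nat.card_congr (Equiv.ofBijective F hF), Nat.card_prod, Nat.card_eq_fintype_card, hG.card]

end Cfsg.Lib.HSGraph
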