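import Mathlib
import Cfsg.Agent.Lib.HSGraph.Aut
import Cfsg.Agent.Lib.SteinerCert.PunctureGroups

/-! An odd automorphism of the Higman–Sims graph. -/

set_option autoImplicit false
set_option maxRecDepth 100000
set_option linter.style.haveILetI false

namespace Cfsg.Lib.HSGraph

open Finset Cfsg Cfsg.Lib.Golay Cfsg.Lib.SteinerCert Cfsg.Lib.SteinerCert.Puncture
open scoped Pointwise

/-- The image list of an involution exchanging the two points. -/
def invList : List ℕ :=
  [0, 1, 2, 3, 4, 9, 14, 7, 20, 5, 10, 17, 12, 16, 6, 21, 13, 11, 19, 18, 8, 15, 23, 22]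

theorem inv_check : keepsCode invList = true ∧ isPermList invList = true ∧
    permOf invList • pair = pair ∧ (∀ p : GolayPt, permOf invList (permOf invList p) = p) ∧
    ((Finset.univ.filter fun p : GolayPt => p ∉ pair ∧ permOf invList p = p)).card = 8 := by decide +kernel

theorem inv_blocks : ((Fam.S22.std.filter fun m => Golay.imgMask invList m == m)).length = 21 ∧
    (Fam.S22.std.all fun m => decide (m < 2 ^ 24)) = true ∧ Fam.S22.std.Nodup := by decide +kernel

/-- The involution in the setwise stabiliser. -/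
noncomputable def inv0 : stab pair := ⟨permOf invList, permOf_mem_M24 inv_check.1, inv_check.2.2.1⟩

/-- The involution outside the two points. -/
noncomputable def pi0 : setSystemAut (sysAt pair) := resAut pair inv0

theorem mem_sysAt_iff (s : Finset {p : GolayPt // p ∉ pair}) :
    s ∈ sysAt pair ↔ ∃ m ∈ Fam.S22.std, toSet m = s.map (Function.Embedding.subtype _) ∪ pair :=
  ⟨fun h => (PunctureGroups.std22 _).1 ⟨h, Finset.subset_union_right⟩, fun h => ((PunctureGroups.std22 _).2 h).1⟩

theorem card_fix_points :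
    (Finset.univ.filter fun p : {p : GolayPt // p ∉ pair} => (pi0 : Equiv.Perm _) p = p).card = 8 := by
  rw [← inv_check.2.2.2.2, ← Finset.card_map (Function.Embedding.subtype _)]
  refine congrArg Finset.card (Finset.ext fun p => ?_)
  simp only [Finset.mem_map, Finset.mem_filter, Finset.mem_univ, true_and]
  constructor
  · rintro ⟨q, hq, rfl⟩
    exact ⟨q.2, congrArg Subtype.val hq⟩
  · rintro ⟨hp, h⟩
    exact ⟨⟨p, hp⟩, Subtype.ext h, rfl⟩

set_option maxHeartbeats 1600000 in
theorem card_fix_blocks [Fintype (sysAt pair)] :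
    (Finset.univ.filter fun b : sysAt pair => b.1.image (pi0 : Equiv.Perm _) = b.1).card = 21 := by
  classical
  obtain ⟨hlen, hlt, hnd⟩ := inv_blocks
  have hmem' := mem_sysAt_iff
  have h22 := PunctureGroups.std22
  generalize Fam.S22.std = L at hlen hlt hnd hmem' h22
  simp only [List.all_eq_true, decide_eq_true_eq] at hlt
  rw [← hlen, ← List.toFinset_card_of_nodup (hnd.filter _)]
  have key : ∀ b : sysAt pair, (b.1.image (pi0 : Equiv.Perm _)).map (Function.Embedding.subtype _) ∪ pair =
      permOf invList • (b.1.map (Function.Embedding.subtype _) ∪ pair) := fun b =>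
    map_image b.1 (pi0 : Equiv.Perm _) (permOf invList) (fun p => rfl) inv_check.2.2.1
  have hinj : ∀ s t : Finset {p : GolayPt // p ∉ pair},
      s.map (Function.Embedding.subtype _) ∪ pair = t.map (Function.Embedding.subtype _) ∪ pair → s = t := by
    intro s t h
    refine Finset.ext fun q => ?_
    have := Finset.ext_iff.1 h q.1
    simpa [q.2] using this
  have himg : ∀ m, toSet (Golay.imgMask invList m) = permOf invList • toSet m := toSet_imgMask inv_check.2.1
  have hmlt : ∀ m, Golay.imgMask invList m < 2 ^ 24 := imgMask_lt inv_check.2.1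
  refine Finset.card_bij (fun b _ => setNat (b.1.map (Function.Embedding.subtype _) ∪ pair)) ?_ ?_ ?_
  · intro b hb
    obtain ⟨m, hm, e⟩ := (hmem' b.1).1 b.2
    rw [Finset.mem_filter] at hb
    rw [List.mem_toFinset, List.mem_filter, beq_iff_eq, ← e, setNat_toSet (hlt m hm)]
    refine ⟨hm, (toSet_eq_iff (hmlt m) (hlt m hm)).1 ?_⟩
    rw [himg, e, ← key, hb.2]
  · intro b _ c _ h
    refine Subtype.ext (hinj _ _ ?_)
    rw [← toSet_setNat (b.1.map (Function.Embedding.subtype _) ∪ pair), h, toSet_setNat]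
  · intro m hm
    rw [List.mem_toFinset, List.mem_filter, beq_iff_eq] at hm
    obtain ⟨ho, hF⟩ := (h22 _).2 ⟨m, hm.1, rfl⟩
    set s := Finset.univ.filter fun q : {p : GolayPt // p ∉ pair} => (q : GolayPt) ∈ toSet m with hs
    have hrep : s.map (Function.Embedding.subtype _) ∪ pair = toSet m := by
      ext p
      simp only [hs, Finset.mem_union, Finset.mem_map, Finset.mem_filter, Finset.mem_univ, true_and]
      constructor
      · rintro (⟨q, hq, rfl⟩ | h)
        · exact hq
        · exact hF h
      · intro hp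
        by_cases h : p ∈ pair
        · exact Or.inr h
        · exact Or.inl ⟨⟨p, h⟩, hp, rfl⟩
    have hmem : s ∈ sysAt pair := (hmem' s).2 ⟨m, hm.1, hrep.symm⟩
    refine ⟨⟨s, hmem⟩, Finset.mem_filter.2 ⟨Finset.mem_univ _, hinj _ _ ?_⟩, by rw [hrep, setNat_toSet (hlt m hm.1)]⟩
    rw [key ⟨s, hmem⟩, hrep, ← himg, hm.2]

/-- The odd automorphism. -/
noncomputable def psi0 : pointBlockGraph (sysAt pair) ≃g pointBlockGraph (sysAt pair) :=
  mapGraph (pi0 : Equiv.Perm {p : GolayPt // p ∉ pair}) pi0.2

theorem sign_of_sq {X : Type*} [Fintype X] [DecidableEq X] {σ : Equiv.Perm X} (h : σ * σ = 1) {f : ℕ}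
    (hf : (univ.filter fun x => σ x = x).card = f) (hne : σ ≠ 1) :
    Equiv.Perm.sign σ = (-1) ^ ((Fintype.card X - f) / 2) := by
  haveI : Fact (Nat.Prime 2) := ⟨Nat.prime_two⟩
  have h2 : orderOf σ = 2 := orderOf_eq_prime (by rw [pow_two, h]) hne
  obtain ⟨k, hk⟩ := Equiv.Perm.cycleType_prime_order (h2.symm ▸ Nat.prime_two)
  rw [h2] at hk
  have hsum := Equiv.Perm.sum_cycleType σ
  have hsupp : σ.support.card = Fintype.card X - f := by
    rw [← hf, ← Finset.card_compl, Finset.compl_filter]
    congr 1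
  rw [Equiv.Perm.sign_of_cycleType, hk, Multiset.sum_replicate, Multiset.card_replicate, ← hsupp, ← hsum, hk,
    Multiset.sum_replicate, smul_eq_mul]
  rw [show (k + 1) * 2 + (k + 1) = 2 * (k + 1) + (k + 1) by ring, pow_add, pow_mul]
  simp

theorem psi0_none : psi0 none = none := rfl

theorem psi0_inl (a : {p : GolayPt // p ∉ pair}) :
    psi0 (some (Sum.inl a)) = some (Sum.inl ((pi0 : Equiv.Perm _) a)) := rfl

theorem psi0_inr (b : sysAt pair) : psi0 (some (Sum.inr b)) = some (Sum.inr b) ↔ b.1.image (pi0 : Equiv.Perm _) = b.1 := by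
  obtain ⟨c, hc, hc'⟩ := mapGraph_blk (pi0 : Equiv.Perm {p : GolayPt // p ∉ pair}) pi0.2 b
  rw [show psi0 (some (Sum.inr b)) = some (Sum.inr c) from hc, ← hc']
  constructor
  · intro h; rw [Sum.inr.inj (Option.some.inj h)]
  · intro h; rw [show c = b from Subtype.ext h]

theorem psi0_sq (x : Option ({p : GolayPt // p ∉ pair} ⊕ sysAt pair)) : psi0 (psi0 x) = x := by
  have h : ∀ a : {p : GolayPt // p ∉ pair}, (pi0 : Equiv.Perm _) ((pi0 : Equiv.Perm _) a) = a := fun a =>
    Subtype.ext (inv_check.2.2.2.1 a.1)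
  rcases x with _ | a | b
  · rfl
  · rw [psi0_inl, psi0_inl, h]
  · obtain ⟨c, hc, hc'⟩ := mapGraph_blk (pi0 : Equiv.Perm {p : GolayPt // p ∉ pair}) pi0.2 b
    obtain ⟨d, hd, hd'⟩ := mapGraph_blk (pi0 : Equiv.Perm {p : GolayPt // p ∉ pair}) pi0.2 c
    rw [show psi0 (some (Sum.inr b)) = some (Sum.inr c) from hc,
      show psi0 (some (Sum.inr c)) = some (Sum.inr d) from hd]
    congr 2
    refine Subtype.ext ?_
    rw [hd', hc', Finset.image_image]
    conv_rhs => rw [← Finset.image_id (s := b.1)]
    exact Finset.image_congr fun a _ => h a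

theorem psi0_odd [Fintype (sysAt pair)] [DecidableEq (sysAt pair)]
    (h100 : Fintype.card (Option ({p : GolayPt // p ∉ pair} ⊕ sysAt pair)) = 100) :
    Equiv.Perm.sign psi0.toEquiv = -1 := by
  classical
  have hf : (univ.filter fun x => psi0.toEquiv x = x).card = 30 := by
    have e : (univ.filter fun x => psi0.toEquiv x = x) =
        insert none (((univ.filter fun a : {p : GolayPt // p ∉ pair} => (pi0 : Equiv.Perm _) a = a).disjSum
          (univ.filter fun b : sysAt pair => b.1.image (pi0 : Equiv.Perm _) = b.1)).map ⟨some, Option.some_injective _⟩) := by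
      ext x
      simp only [mem_filter, mem_univ, true_and, mem_insert, mem_map, Function.Embedding.coeFn_mk]
      show psi0 x = x ↔ _
      rcases x with _ | a | b
      · simp [psi0_none]
      · simp [psi0_inl]
      · simp [psi0_inr]
    rw [e, card_insert_of_notMem (by simp), card_map, card_disjSum, card_fix_points, card_fix_blocks]
  rw [sign_of_sq (f := 30) (Equiv.ext psi0_sq) (by convert hf) ?_, h100]
  · decide
  · intro h
    rw [h] at hf
    simp [h100] at hf

theorem psi0_fix : (∃ a, psi0 (some (Sum.inl a)) = some (Sum.inl a)) ∧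
    ∃ b, psi0 (some (Sum.inr b)) = some (Sum.inr b) := by
  classical
  haveI : Fintype (sysAt pair) := Fintype.ofFinite _
  constructor
  · obtain ⟨a, ha⟩ := Finset.card_pos.1 (by rw [card_fix_points]; norm_num : 0 < (Finset.univ.filter fun p : {p : GolayPt // p ∉ pair} => (pi0 : Equiv.Perm _) p = p).card)
    exact ⟨a, by rw [psi0_inl, (Finset.mem_filter.1 ha).2]⟩
  · obtain ⟨b, hb⟩ := Finset.card_pos.1 (by rw [card_fix_blocks]; norm_num : 0 < (Finset.univ.filter fun b : sysAt pair => b.1.image (pi0 : Equiv.Perm _) = b.1).card)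
    exact ⟨b, (psi0_inr b).2 (Finset.mem_filter.1 hb).2⟩

end Cfsg.Lib.HSGraph
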