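import Mathlib
import Cfsg.Agent.Lib.HSGraph.Odd
import Cfsg.Agent.S0414
import Cfsg.Agent.S0428

/-! The simple group of the Higman–Sims graph. -/

set_option autoImplicit false
set_option linter.style.haveILetI false

namespace Cfsg.Lib.HSGraph

open Finset Cfsg
open scoped Pointwise

variable {V : Type*}

/-- The automorphisms as a subgroup of the permutations. -/
def autSub (G : SimpleGraph V) : Subgroup (Equiv.Perm V) where
  carrier := {σ | ∀ x y, G.Adj (σ x) (σ y) ↔ G.Adj x y}
  one_mem' := fun _ _ => Iff.rfl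
  mul_mem' := fun {σ τ} hσ hτ x y => (hσ (τ x) (τ y)).trans (hτ x y)
  inv_mem' := fun {σ} hσ x y => by
    have := hσ (σ⁻¹ x) (σ⁻¹ y)
    simpa using this.symm

/-- The automorphism group as a subgroup. -/
def autSubEquiv (G : SimpleGraph V) : (G ≃g G) ≃* autSub G where
  toFun φ := ⟨φ.toEquiv, fun _ _ => φ.map_rel_iff⟩
  invFun σ := ⟨σ.1, fun {a b} => σ.2 a b⟩
  left_inv _ := rfl
  right_inv _ := rfl
  map_mul' _ _ := rfl

theorem simple_criterion [Fintype V] (hV : Fintype.card V = 100) (v0 : V) (H : Subgroup (Equiv.Perm V))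
    (htrans : ∀ w, ∃ g ∈ H, g v0 = w) (O1 : Finset V) (h1 : O1.card = 22) (hv1 : v0 ∉ O1)
    (ht1 : ∀ a ∈ O1, ∀ b ∈ O1, ∃ g ∈ H, g v0 = v0 ∧ g a = b)
    (ht2 : ∀ a b, a ≠ v0 → a ∉ O1 → b ≠ v0 → b ∉ O1 → ∃ g ∈ H, g v0 = v0 ∧ g a = b)
    [IsSimpleGroup (MulAction.stabilizer H v0)] : IsSimpleGroup H := by
  classical
  haveI : Nontrivial H := by
    obtain ⟨g, hg⟩ := (inferInstance : Nontrivial (MulAction.stabilizer H v0)).exists_pair_ne
    exact ⟨⟨g.1, hg.choose.1, fun e => hg.choose_spec (Subtype.ext e)⟩⟩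
  refine ⟨fun N hN => ?_⟩
  haveI := hN
  set S := MulAction.stabilizer H v0 with hS
  -- the orbit of the base point
  have orbit_cases : ∀ M : Subgroup H, M.Normal →
      (∀ m ∈ M, (m : Equiv.Perm V) v0 = v0) ∨ (∀ w, ∃ m ∈ M, (m : Equiv.Perm V) v0 = w) := by
    intro M hM
    set O : Finset V := univ.filter fun w => ∃ m ∈ M, (m : Equiv.Perm V) v0 = w with hO
    have hmemO : ∀ w, w ∈ O ↔ ∃ m ∈ M, (m : Equiv.Perm V) v0 = w := fun w => by simp [hO]
    have hinv : ∀ g ∈ H, g v0 = v0 → ∀ a ∈ O, g a ∈ O := by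
      intro g hg hgv a ha
      obtain ⟨m, hm, rfl⟩ := (hmemO a).1 ha
      refine (hmemO _).2 ⟨⟨g, hg⟩ * m * ⟨g, hg⟩⁻¹, hM.conj_mem m hm _, ?_⟩
      show g ((m : Equiv.Perm V) (g⁻¹ v0)) = _
      rw [show g⁻¹ v0 = v0 by rw [Equiv.Perm.inv_eq_iff_eq, hgv]]
    have hdvd : O.card ∣ 100 := by
      have horb : (MulAction.orbit M v0).ncard = O.card := by
        rw [← Set.ncard_coe_finset]
        congr 1
        ext w
        rw [Finset.mem_coe, hmemO]
        exact ⟨fun ⟨m, hm⟩ => ⟨m.1, m.2, hm⟩, fun ⟨m, hm, e⟩ => ⟨⟨m, hm⟩, e⟩⟩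
      have h2 : (MulAction.stabilizer M v0).index = O.card := (MulAction.index_stabilizer M v0).trans horb
      have h3 : MulAction.stabilizer M v0 = S.subgroupOf M := by ext m; rfl
      have h4 : S.index = 100 := by
        rw [hS, MulAction.index_stabilizer, ← hV, ← Finset.card_univ, ← Set.ncard_coe_finset]
        congr 1
        ext w
        simp only [Finset.coe_univ, Set.mem_univ, iff_true]
        obtain ⟨g, hg, e⟩ := htrans w
        exact ⟨⟨g, hg⟩, e⟩
      rw [← h2, h3, ← h4, show (S.subgroupOf M).index = S.relIndex M from rfl]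
      haveI := hM
      have a1 := Subgroup.relIndex_mul_index (inf_le_right : S ⊓ M ≤ M)
      have a2 := Subgroup.relIndex_mul_index (inf_le_left : S ⊓ M ≤ S)
      have a3 := Subgroup.relIndex_mul_index (le_sup_right : M ≤ S ⊔ M)
      rw [Subgroup.inf_relIndex_right] at a1
      rw [inf_comm S M, Subgroup.inf_relIndex_right, ← Subgroup.relIndex_sup_right S M] at a2
      rw [inf_comm M S, ← a1, ← a3, mul_left_comm] at a2
      exact ⟨(S ⊔ M).index, mul_left_cancel₀ (Subgroup.index_ne_zero_of_finite) a2⟩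
    have hall : ∀ P : Finset V, (∀ a ∈ P, ∀ b ∈ P, ∃ g ∈ H, g v0 = v0 ∧ g a = b) → P ⊆ O ∨ Disjoint P O := by
      intro P hP
      by_cases hd : Disjoint P O
      · exact Or.inr hd
      · obtain ⟨a, haP, haO⟩ := not_disjoint_iff.1 hd
        refine Or.inl fun b hb => ?_
        obtain ⟨g, hg, hgv, e⟩ := hP a haP b hb
        exact e ▸ hinv g hg hgv a haO
    set O2 : Finset V := univ.filter fun a => a ≠ v0 ∧ a ∉ O1 with hO2
    have h2 : O2.card = 77 := by
      rw [show O2 = univ \ insert v0 O1 by ext a; simp [hO2], card_sdiff_of_subset (subset_univ _), card_univ, hV,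
        card_insert_of_notMem hv1, h1]
    have hcases2 := hall O2 fun a ha b hb => by
      simp only [hO2, mem_filter] at ha hb
      exact ht2 a b ha.2.1 ha.2.2 hb.2.1 hb.2.2
    have hv0 : v0 ∈ O := (hmemO v0).2 ⟨1, M.one_mem, rfl⟩
    have hd12 : Disjoint O1 O2 := by rw [disjoint_left]; intro a ha; simp [hO2, ha]
    rcases hall O1 ht1 with a1 | a1 <;> rcases hcases2 with a2 | a2
    · refine Or.inr fun w => (hmemO w).1 ?_
      by_cases hw : w = v0
      · exact hw ▸ hv0
      by_cases hw1 : w ∈ O1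
      · exact a1 hw1
      exact a2 (by simp [hO2, hw, hw1])
    · exfalso
      have : O = insert v0 O1 := by
        refine Finset.ext fun w => ⟨fun hw => ?_, fun hw => ?_⟩
        · by_contra h'
          rw [mem_insert, not_or] at h'
          exact disjoint_left.1 a2 (by simp [hO2, h'.1, h'.2]) hw
        · rcases mem_insert.1 hw with rfl | hw
          · exact hv0
          · exact a1 hw
      rw [this, card_insert_of_notMem hv1, h1] at hdvd
      norm_num at hdvd
    · exfalso
      have hv2 : v0 ∉ O2 := by simp [hO2]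
      have : O = insert v0 O2 := by
        refine Finset.ext fun w => ⟨fun hw => ?_, fun hw => ?_⟩
        · by_contra h'
          rw [mem_insert, not_or] at h'
          refine disjoint_left.1 a1 ?_ hw
          by_contra hw1
          exact h'.2 (by simp [hO2, h'.1, hw1])
        · rcases mem_insert.1 hw with rfl | hw
          · exact hv0
          · exact a2 hw
      rw [this, card_insert_of_notMem hv2, h2] at hdvd
      norm_num at hdvd
    · refine Or.inl fun m hm => ?_
      by_contra hne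
      have hw : (m : Equiv.Perm V) v0 ∈ O := (hmemO _).2 ⟨m, hm, rfl⟩
      by_cases hw1 : (m : Equiv.Perm V) v0 ∈ O1
      · exact disjoint_left.1 a1 hw1 hw
      · exact disjoint_left.1 a2 (by simp [hO2, hne, hw1]) hw
  have triv : ∀ M : Subgroup H, M.Normal → (∀ m ∈ M, (m : Equiv.Perm V) v0 = v0) → M = ⊥ := by
    intro M hM hfix
    rw [eq_bot_iff]
    intro m hm
    rw [Subgroup.mem_bot]
    refine Subtype.ext (Equiv.ext fun w => ?_)
    obtain ⟨g, hg, rfl⟩ := htrans w
    have := hfix _ (hM.conj_mem m hm (⟨g, hg⟩ : H)⁻¹)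
    have h' : g⁻¹ ((m : Equiv.Perm V) (g v0)) = v0 := by simpa using this
    exact (Equiv.Perm.inv_eq_iff_eq.1 h').trans rfl |>.trans rfl
  rcases orbit_cases N hN with h | h
  · exact Or.inl (triv N hN h)
  haveI : (N.comap S.subtype).Normal := hN.comap _
  rcases IsSimpleGroup.eq_bot_or_eq_top_of_normal (N.comap S.subtype) inferInstance with hb | ht
  · exfalso
    have hcard : Nat.card N = 100 := by
      rw [← hV, ← Nat.card_eq_fintype_card]
      refine Nat.card_congr (Equiv.ofBijective (fun m : N => ((m : H) : Equiv.Perm V) v0) ⟨fun a b e => ?_, fun w => ?_⟩)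
      · have hm : ((a : H)⁻¹ * b) ∈ S := by
          show ((a : H) : Equiv.Perm V)⁻¹ (((b : H) : Equiv.Perm V) v0) = v0
          rw [show ((b : H) : Equiv.Perm V) v0 = ((a : H) : Equiv.Perm V) v0 from e.symm]; exact Equiv.symm_apply_apply _ _
        have h1 : (⟨(a : H)⁻¹ * b, hm⟩ : S) ∈ N.comap S.subtype := N.mul_mem (N.inv_mem a.2) b.2
        rw [hb, Subgroup.mem_bot] at h1
        exact Subtype.ext (inv_mul_eq_one.1 (congrArg Subtype.val h1))
      · obtain ⟨m, hm, e⟩ := h w
        exact ⟨⟨m, hm⟩, e⟩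
    haveI : Fact (Nat.Prime 5) := ⟨by norm_num⟩
    let P : Sylow 5 N := default
    have hP : Nat.card (P : Subgroup N) = 25 := by
      rw [P.card_eq_multiplicity, hcard]; decide +kernel
    have hn : Nat.card (Sylow 5 N) = 1 := by
      have hmod := card_sylow_modEq_one 5 N
      have hidx : (P : Subgroup N).index = 4 := by
        have := (P : Subgroup N).index_mul_card
        rw [hP, hcard] at this; omega
      have hdvd := Sylow.card_dvd_index P
      rw [hidx] at hdvd
      have := Nat.le_of_dvd (by norm_num) hdvd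
      unfold Nat.ModEq at hmod
      interval_cases Nat.card (Sylow 5 N) <;> omega
    haveI : Subsingleton (Sylow 5 N) := (Nat.card_eq_one_iff_unique.1 hn).1
    haveI : (P : Subgroup N).Characteristic := inferInstance
    have hM : ((P : Subgroup N).map N.subtype).Normal := inferInstance
    rcases orbit_cases _ hM with h' | h'
    · have := triv _ hM h'
      rw [Subgroup.map_eq_bot_iff_of_injective _ N.subtype_injective] at this
      rw [this, Subgroup.card_bot] at hP
      norm_num at hP
    · have : 100 ≤ 25 := by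
        rw [← hP, ← hV, ← Nat.card_eq_fintype_card]
        refine Nat.card_le_card_of_surjective (fun m : (P : Subgroup N) => (((m : N) : H) : Equiv.Perm V) v0) fun w => ?_
        obtain ⟨_, ⟨m, hm, rfl⟩, e⟩ := h' w
        exact ⟨⟨m, hm⟩, e⟩
      norm_num at this
  · refine Or.inr (eq_top_iff.2 fun g _ => ?_)
    obtain ⟨m, hm, e⟩ := h ((g : Equiv.Perm V) v0)
    have hs : m⁻¹ * g ∈ S := by
      show ((m : Equiv.Perm V))⁻¹ ((g : Equiv.Perm V) v0) = v0
      rw [← e]; exact Equiv.symm_apply_apply _ _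
    have h1 : (⟨m⁻¹ * g, hs⟩ : S) ∈ N.comap S.subtype := by rw [ht]; exact Subgroup.mem_top _
    rw [← mul_inv_cancel_left m g]
    exact N.mul_mem hm h1

theorem isHS_exists {α : Type*} [Fintype α] [DecidableEq α] (hα : Fintype.card α = 22) {B : Set (Finset α)}
    (hB : IsSteinerSystem 3 6 B) [Fintype B] [DecidableEq B]
    (ψ : pointBlockGraph B ≃g pointBlockGraph B) (hψ : ψ none = none) (hψs : Equiv.Perm.sign ψ.toEquiv = -1)
    (a0 : α) (ha0 : ψ (some (Sum.inl a0)) = some (Sum.inl a0)) (b0 : B) (hb0 : ψ (some (Sum.inr b0)) = some (Sum.inr b0)) :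
    ∃ H : Subgroup (pointBlockGraph B ≃g pointBlockGraph B), IsHS H := by
  classical
  have hG := Cfsg.Agent.S0428.result hα hB
  obtain ⟨hcA, h3, M, hMidx, hM⟩ := Cfsg.Agent.S0414.result hα hB
  let A := autSub (pointBlockGraph B)
  let H : Subgroup (Equiv.Perm (Option (α ⊕ B))) := A ⊓ Equiv.Perm.sign.ker
  have memH : ∀ φ : (pointBlockGraph B) ≃g (pointBlockGraph B), Equiv.Perm.sign φ.toEquiv = 1 → φ.toEquiv ∈ H := fun φ h =>
    ⟨(autSubEquiv (pointBlockGraph B) φ).2, h⟩
  have himg : ∀ π : setSystemAut B, (fun b : Finset α => b.image (π : Equiv.Perm α)) '' B = B := fun π => π.2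
  -- make an automorphism even
  have even' : ∀ φ : (pointBlockGraph B) ≃g (pointBlockGraph B), ∃ φ' ∈ H, ∀ x, ψ x = x → φ' x = φ x := by
    intro φ
    rcases Int.units_eq_one_or (Equiv.Perm.sign φ.toEquiv) with h | h
    · exact ⟨φ.toEquiv, memH φ h, fun _ _ => rfl⟩
    · refine ⟨φ.toEquiv * ψ.toEquiv, ⟨(autSub (pointBlockGraph B)).mul_mem (autSubEquiv (pointBlockGraph B) φ).2 (autSubEquiv (pointBlockGraph B) ψ).2, ?_⟩, fun x hx => ?_⟩
      · show Equiv.Perm.sign (φ.toEquiv * ψ.toEquiv) = 1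
        rw [map_mul, h, hψs]; rfl
      · show φ (ψ x) = φ x
        rw [hx]
  have htrans : ∀ w, ∃ g ∈ H, g none = w := by
    intro w
    obtain ⟨T, hT⟩ := exists_iso_none hG hα hB w
    obtain ⟨g, hg, he⟩ := even' T.symm
    exact ⟨g, hg, by rw [he none hψ, ← hT]; exact T.symm_apply_apply w⟩
  have hstab : ∀ π : setSystemAut B, ∃ g ∈ H, g none = none ∧
      ∀ x, ψ x = x → g x = mapGraph (π : Equiv.Perm α) (himg π) x := fun π => by
    obtain ⟨g, hg, he⟩ := even' (mapGraph (π : Equiv.Perm α) (himg π))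
    exact ⟨g, hg, (he none hψ).trans rfl, he⟩
  have conn : ∀ {x y z : Option (α ⊕ B)}, (∃ g ∈ H, g none = none ∧ g x = y) → (∃ g ∈ H, g none = none ∧ g x = z) →
      ∃ g ∈ H, g none = none ∧ g y = z := by
    rintro x y z ⟨g, hg, g0, rfl⟩ ⟨k, hk, k0, rfl⟩
    refine ⟨k * g⁻¹, H.mul_mem hk (H.inv_mem hg), ?_, ?_⟩
    · show k (g⁻¹ none) = none
      rw [show g⁻¹ none = none by rw [Equiv.Perm.inv_eq_iff_eq, g0], k0]
    · show k (g⁻¹ (g x)) = k x
      rw [Equiv.Perm.coe_inv, Equiv.symm_apply_apply]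
  have to_pt : ∀ a, ∃ g ∈ H, g none = none ∧ g (some (Sum.inl a0)) = some (Sum.inl a) := by
    intro a
    haveI := h3
    haveI : MulAction.IsPretransitive (setSystemAut B) α :=
      MulAction.is_one_pretransitive_iff.1 (MulAction.isMultiplyPretransitive_of_le (n := 3) (by norm_num) (by rw [Nat.card_eq_fintype_card, hα]; norm_num))
    obtain ⟨π, hπ⟩ := MulAction.exists_smul_eq (setSystemAut B) a0 a
    obtain ⟨g, hg, g0, he⟩ := hstab π
    exact ⟨g, hg, g0, by rw [he _ ha0, mapGraph_inl]; exact congrArg (fun z => some (Sum.inl z)) hπ⟩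
  have to_blk : ∀ b, ∃ g ∈ H, g none = none ∧ g (some (Sum.inr b0)) = some (Sum.inr b) := by
    intro b
    haveI := h3
    obtain ⟨s, hs, hs3⟩ := Finset.exists_subset_card_eq (show 3 ≤ b0.1.card by rw [hB.1 _ b0.2]; norm_num)
    obtain ⟨t, ht, ht3⟩ := Finset.exists_subset_card_eq (show 3 ≤ b.1.card by rw [hB.1 _ b.2]; norm_num)
    let x : Fin 3 ↪ α := ((finCongr hs3.symm).trans s.equivFin.symm).toEmbedding.trans (Function.Embedding.subtype _)
    let y : Fin 3 ↪ α := ((finCongr ht3.symm).trans t.equivFin.symm).toEmbedding.trans (Function.Embedding.subtype _)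
    obtain ⟨π, hπ⟩ := MulAction.exists_smul_eq (setSystemAut B) x y
    obtain ⟨g, hg, g0, he⟩ := hstab π
    obtain ⟨c, hc, hc'⟩ := mapGraph_blk (π : Equiv.Perm α) (himg π) b0
    suffices hcb : c = b from ⟨g, hg, g0, by rw [he _ hb0, hc, hcb]⟩
    obtain ⟨d, -, huniq⟩ := hB.2 t ht3
    refine Subtype.ext ((huniq _ ⟨c.2, fun q hq => ?_⟩).trans (huniq _ ⟨b.2, ht⟩).symm)
    obtain ⟨i, hi⟩ : ∃ i, y i = q := ⟨(finCongr ht3.symm).symm (t.equivFin ⟨q, hq⟩), by simp [y]⟩
    rw [hc', ← hi, ← DFunLike.congr_fun hπ i]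
    exact Finset.mem_image_of_mem _ (hs (by simp [x]))
  -- the stabiliser of the base vertex
  let ev : setSystemAut B →* Equiv.Perm (Option (α ⊕ B)) :=
    { toFun := fun π => (mapGraph (π : Equiv.Perm α) (himg π)).toEquiv
      map_one' := by
        refine Equiv.ext fun x => ?_
        rcases x with _ | a | b
        · rfl
        · rfl
        · obtain ⟨c, hc, hc'⟩ := mapGraph_blk ((1 : setSystemAut B) : Equiv.Perm α) (himg 1) b
          show mapGraph ((1 : setSystemAut B) : Equiv.Perm α) (himg 1) (some (Sum.inr b)) = _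
          rw [hc, show c = b from Subtype.ext (by rw [hc']; simp)]
          rfl
      map_mul' := fun π π' => by
        apply Equiv.ext
        intro x
        rcases x with _ | a | b
        · rfl
        · rfl
        · obtain ⟨c, hc, hc'⟩ := mapGraph_blk ((π * π' : setSystemAut B) : Equiv.Perm α) (himg (π * π')) b
          obtain ⟨d, hd, hd'⟩ := mapGraph_blk (π' : Equiv.Perm α) (himg π') b
          obtain ⟨f, hf, hf'⟩ := mapGraph_blk (π : Equiv.Perm α) (himg π) d
          show mapGraph ((π * π' : setSystemAut B) : Equiv.Perm α) (himg (π * π')) (some (Sum.inr b)) =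
            mapGraph (π : Equiv.Perm α) (himg π) (mapGraph (π' : Equiv.Perm α) (himg π') (some (Sum.inr b)))
          rw [hc, hd, hf, show c = f from Subtype.ext (by rw [hc', hf', hd', Finset.image_image]; rfl)] }
  have hevinj : Function.Injective ev := fun π π' e => Subtype.ext (Equiv.ext fun a => by
    have := Equiv.ext_iff.1 e (some (Sum.inl a))
    exact Sum.inl.inj (Option.some.inj this))
  set S := MulAction.stabilizer H (none : Option (α ⊕ B)) with hS
  let K : Subgroup (setSystemAut B) := (Equiv.Perm.sign.comp ev).ker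
  have hMK : M ≤ K := fun m hm => by
    haveI := hM.1
    have h1 : ((Equiv.Perm.sign.comp ev).comp M.subtype).ker = ⊤ := by
      refine (IsSimpleGroup.eq_bot_or_eq_top_of_normal ((Equiv.Perm.sign.comp ev).comp M.subtype).ker inferInstance).resolve_left fun hb => ?_
      have := Nat.card_le_card_of_injective _ ((MonoidHom.ker_eq_bot_iff _).1 hb)
      rw [hM.2, Nat.card_eq_fintype_card, Fintype.card_units_int] at this
      norm_num at this
    have : (⟨m, hm⟩ : M) ∈ ((Equiv.Perm.sign.comp ev).comp M.subtype).ker := by rw [h1]; exact Subgroup.mem_top _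
    exact this
  have hKne : K ≠ ⊤ := by
    intro hK
    obtain ⟨π, hπ, h1, h2⟩ := fix_none_aut hB ψ hψ
    have he : ev ⟨π, hπ⟩ = ψ.toEquiv := Equiv.ext fun x => by
      rcases x with _ | a | b
      · exact hψ.symm
      · exact (h1 a).symm
      · obtain ⟨c, hc, hc'⟩ := h2 b
        obtain ⟨d, hd, hd'⟩ := mapGraph_blk π (himg ⟨π, hπ⟩) b
        show mapGraph π (himg ⟨π, hπ⟩) (some (Sum.inr b)) = ψ (some (Sum.inr b))
        rw [hd, hc, show d = c from Subtype.ext (hd'.trans hc'.symm)]
    have : (⟨π, hπ⟩ : setSystemAut B) ∈ K := by rw [hK]; exact Subgroup.mem_top _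
    rw [MonoidHom.mem_ker, MonoidHom.comp_apply, he, hψs] at this
    exact absurd this (by decide)
  have hKM : K = M := by
    refine (le_antisymm hMK ?_).symm
    have hdvd := Subgroup.relIndex_mul_index hMK
    rw [hMidx] at hdvd
    have hK2 : K.index ≠ 1 := fun e => hKne (Subgroup.index_eq_one.1 e)
    have : M.relIndex K = 1 := by
      have h2 : K.index ∣ 2 := ⟨M.relIndex K, by rw [mul_comm]; exact hdvd.symm⟩
      rcases (Nat.dvd_prime Nat.prime_two).1 h2 with e | e
      · exact absurd e hK2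
      · rw [e] at hdvd; omega
    exact Subgroup.relIndex_eq_one.1 this
  have hmemK : ∀ π : K, ev π.1 ∈ H := fun π => ⟨(autSubEquiv (pointBlockGraph B) (mapGraph ((π.1 : setSystemAut B) : Equiv.Perm α) (himg π.1))).2, π.2⟩
  let toS : K →* S :=
    { toFun := fun π => ⟨⟨ev π.1, hmemK π⟩, rfl⟩
      map_one' := Subtype.ext (Subtype.ext (map_one ev))
      map_mul' := fun a b => Subtype.ext (Subtype.ext (map_mul ev a.1 b.1)) }
  have htoS : Function.Bijective toS := by
    refine ⟨fun a b e => Subtype.ext (hevinj (congrArg Subtype.val (congrArg Subtype.val e))), ?_⟩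
    rintro ⟨⟨g, hgA, hgs⟩, hg0⟩
    let φ : (pointBlockGraph B) ≃g (pointBlockGraph B) := (autSubEquiv (pointBlockGraph B)).symm ⟨g, hgA⟩
    obtain ⟨π, hπ, h1, h2⟩ := fix_none_aut hB φ hg0
    have he : ev ⟨π, hπ⟩ = g := Equiv.ext fun x => by
      rcases x with _ | a | b
      · exact (show g none = none from hg0).symm
      · exact (h1 a).symm
      · obtain ⟨c, hc, hc'⟩ := h2 b
        obtain ⟨d, hd, hd'⟩ := mapGraph_blk π (himg ⟨π, hπ⟩) b
        show mapGraph π (himg ⟨π, hπ⟩) (some (Sum.inr b)) = φ (some (Sum.inr b))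
        rw [hd, hc, show d = c from Subtype.ext (hd'.trans hc'.symm)]
    exact ⟨⟨⟨π, hπ⟩, by show Equiv.Perm.sign (ev ⟨π, hπ⟩) = 1; rw [he]; exact hgs⟩, Subtype.ext (Subtype.ext he)⟩
  let eS : K ≃* S := MulEquiv.ofBijective toS htoS
  have hKs : IsSimpleGroup K ∧ Nat.card K = 443520 := by rw [hKM]; exact hM
  haveI := hKs.1
  haveI : IsSimpleGroup S := eS.symm.isSimpleGroup
  have hV : Fintype.card (Option (α ⊕ B)) = 100 := hG.card
  have hsimp : IsSimpleGroup H := simple_criterion hV none H htrans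
    ((univ : Finset α).image fun a => some (Sum.inl a))
    (by rw [card_image_of_injective _ fun a b e => Sum.inl.inj (Option.some.inj e), card_univ, hα]) (by simp)
    (fun a ha b hb => by
      obtain ⟨a, -, rfl⟩ := mem_image.1 ha
      obtain ⟨b, -, rfl⟩ := mem_image.1 hb
      exact conn (to_pt a) (to_pt b))
    (fun a b ha ha' hb hb' => by
      rcases a with _ | a | a
      · exact absurd rfl ha
      · simp at ha'
      rcases b with _ | b | b
      · exact absurd rfl hb
      · simp at hb'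
      exact conn (to_blk a) (to_blk b))
  have hcard : Nat.card H = 44352000 := by
    have h : Nat.card H = S.index * Nat.card S := (Subgroup.index_mul_card S).symm
    have hidx : S.index = 100 := by
      rw [hS, MulAction.index_stabilizer, ← hV, ← Finset.card_univ, ← Set.ncard_coe_finset]
      congr 1
      ext w
      simp only [Finset.coe_univ, Set.mem_univ, iff_true]
      obtain ⟨g, hg, e⟩ := htrans w
      exact ⟨⟨g, hg⟩, e⟩
    rw [h, hidx, ← Nat.card_congr eS.toEquiv, hKs.2]
  let f : H →* ((pointBlockGraph B) ≃g (pointBlockGraph B)) := (autSubEquiv (pointBlockGraph B)).symm.toMonoidHom.comp (Subgroup.inclusion inf_le_left)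
  have hf : Function.Injective f := (autSubEquiv (pointBlockGraph B)).symm.injective.comp (Subgroup.inclusion_injective _)
  haveI := hsimp
  exact ⟨f.range, (MonoidHom.ofInjective hf).symm.isSimpleGroup,
    (Nat.card_congr (MonoidHom.ofInjective hf).toEquiv).symm.trans hcard⟩

end Cfsg.Lib.HSGraph
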